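import Cfsg.Agent.SpTwoGen.Basic
import Mathlib.FieldTheory.Finite.Basic

/-!
The symplectic group is generated by two elements.
-/

set_option autoImplicit false
set_option maxHeartbeats 1000000

namespace CfsgLib.SpTwoGen

open Matrix CfsgLib.SpGeom

variable {F : Type*} [Field F] {n : ℕ}

local notation "ι" => (Fin (n + 2) ⊕ Fin (n + 2))
local notation "V" => (ι → F)
local notation "Sp" => Matrix.symplecticGroup (Fin (n + 2)) F
local notation "f" => Cfsg.sympForm (n + 2) F
local notation "mat" A:max => ((A : Sp) : Matrix ι ι F)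

/-- basis vectors -/
def eb (i : Fin (n + 2)) : V := Pi.single (Sum.inl i) 1
/-- basis vectors -/
def gb (i : Fin (n + 2)) : V := Pi.single (Sum.inr i) 1

local notation "e" => (eb (F := F) (n := n))
local notation "g" => (gb (F := F) (n := n))

theorem f_ee (i j : Fin (n + 2)) : f (e i) (e j) = 0 := by
  rw [eb, eb, form_single_inl_right]; simp
theorem f_gg (i j : Fin (n + 2)) : f (g i) (g j) = 0 := by
  rw [gb, gb, form_single_inr_right]; simp
theorem f_ge (i j : Fin (n + 2)) : f (g i) (e j) = if i = j then 1 else 0 := by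
  rw [gb, eb, form_single_inl_right]; simp [Pi.single_apply, eq_comm]
theorem f_eg (i j : Fin (n + 2)) : f (e i) (g j) = if i = j then -1 else 0 := by
  rw [form_skew, f_ge]; by_cases h : i = j <;> simp [h, eq_comm]
theorem f_eg_ne {i j : Fin (n + 2)} (h : i ≠ j) : f (e i) (g j) = 0 := by rw [f_eg, if_neg h]
theorem f_ge_ne {i j : Fin (n + 2)} (h : i ≠ j) : f (g i) (e j) = 0 := by rw [f_ge, if_neg h]

theorem zero_ne_last : (0 : Fin (n + 2)) ≠ Fin.last (n + 1) := by
  intro h; have := congrArg Fin.val h; simp at this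
theorem zero_ne_one' : (0 : Fin (n + 2)) ≠ 1 := by
  intro h; have := congrArg Fin.val h; simp at this

/-- the signed cyclic shift, as a linear map -/
def wLin (n : ℕ) (F : Type*) [Field F] :
    ((Fin (n + 2) ⊕ Fin (n + 2)) → F) →ₗ[F] ((Fin (n + 2) ⊕ Fin (n + 2)) → F) where
  toFun x := Sum.elim
    (fun i => if i = 0 then -x (.inr (Fin.last (n + 1))) else x (.inl (i - 1)))
    (fun i => if i = 0 then x (.inl (Fin.last (n + 1))) else x (.inr (i - 1)))
  map_add' x y := by ext (i | i) <;> simp <;> split_ifs <;> ring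
  map_smul' a x := by ext (i | i) <;> simp

theorem zero_sub_one : (0 : Fin (n + 2)) - 1 = Fin.last (n + 1) :=
  eq_comm.mp (eq_sub_of_add_eq (Fin.last_add_one (n + 1)))

theorem wLin_form (x y : V) : f (wLin n F x) (wLin n F y) = f x y := by
  rw [form_def, form_def]
  refine Fintype.sum_equiv (Equiv.subRight (1 : Fin (n + 2))) _ _ fun i => ?_
  show _ = x (.inr (i - 1)) * y (.inl (i - 1)) - x (.inl (i - 1)) * y (.inr (i - 1))
  by_cases h : i = 0
  · subst h
    rw [zero_sub_one]
    simp [wLin]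
    ring
  · simp [wLin, h]

/-- the signed cyclic shift -/
def wSp (n : ℕ) (F : Type*) [Field F] : Matrix.symplecticGroup (Fin (n + 2)) F :=
  ⟨LinearMap.toMatrix' (wLin n F), mem_of_form fun x y => by
    rw [LinearMap.toMatrix'_mulVec, LinearMap.toMatrix'_mulVec, wLin_form]⟩

local notation "w" => wSp n F

theorem w_mulVec (x : V) : mat w *ᵥ x = wLin n F x := LinearMap.toMatrix'_mulVec _ x

theorem w_e {i : Fin (n + 2)} (h : i ≠ Fin.last (n + 1)) : mat w *ᵥ e i = e (i + 1) := by
  rw [w_mulVec]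
  ext (j | j)
  · by_cases hj : j = 0
    · subst hj
      have : i + 1 ≠ 0 := fun he => h (by rw [← zero_sub_one, ← he, add_sub_cancel_right])
      simp [wLin, eb, this.symm]
    · simp [wLin, eb, hj, Pi.single_apply, sub_eq_iff_eq_add]
  · by_cases hj : j = 0 <;> simp [wLin, eb, hj, h.symm]

theorem w_e_last : mat w *ᵥ e (Fin.last (n + 1)) = g 0 := by
  rw [w_mulVec]
  ext (j | j)
  · by_cases hj : j = 0
    · simp [wLin, eb, gb, hj]
    · have : j - 1 ≠ Fin.last (n + 1) := fun he => hj (by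
        rw [eq_comm, ← zero_sub_one] at he; exact (sub_left_injective he).symm)
      simp [wLin, eb, gb, hj, this]
  · by_cases hj : j = 0 <;> simp [wLin, eb, gb, hj]

theorem w_g {i : Fin (n + 2)} (h : i ≠ Fin.last (n + 1)) : mat w *ᵥ g i = g (i + 1) := by
  rw [w_mulVec]
  ext (j | j)
  · by_cases hj : j = 0 <;> simp [wLin, gb, hj, h.symm]
  · by_cases hj : j = 0
    · subst hj
      have : i + 1 ≠ 0 := fun he => h (by rw [← zero_sub_one, ← he, add_sub_cancel_right])
      simp [wLin, gb, this.symm]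
    · simp [wLin, gb, hj, Pi.single_apply, sub_eq_iff_eq_add]

theorem w_g_last : mat w *ᵥ g (Fin.last (n + 1)) = -e 0 := by
  rw [w_mulVec]
  ext (j | j)
  · by_cases hj : j = 0
    · simp [wLin, eb, gb, hj]
    · simp [wLin, eb, gb, hj]
  · by_cases hj : j = 0
    · simp [wLin, eb, gb, hj]
    · have : j - 1 ≠ Fin.last (n + 1) := fun he => hj (by
        rw [eq_comm, ← zero_sub_one] at he; exact (sub_left_injective he).symm)
      simp [wLin, eb, gb, hj, this]

/-- the scalar of the torus element at a coordinate -/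
def hv (j : Fin (n + 2)) (k : Fˣ) : ι → F :=
  Sum.elim (fun i => if i = j then (k : F) else 1) (fun i => if i = j then ((k⁻¹ : Fˣ) : F) else 1)

/-- a torus element -/
def hSp (j : Fin (n + 2)) (k : Fˣ) : Matrix.symplecticGroup (Fin (n + 2)) F :=
  ⟨Matrix.diagonal (hv j k), mem_of_form fun x y => by
    rw [form_def, form_def]
    refine Finset.sum_congr rfl fun i _ => ?_
    simp only [Matrix.mulVec_diagonal, hv, Sum.elim_inl, Sum.elim_inr]
    split_ifs with h
    · have : ((k⁻¹ : Fˣ) : F) * (k : F) = 1 := k.inv_mul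
      linear_combination (x (.inr i) * y (.inl i) - x (.inl i) * y (.inr i)) * this
    · ring⟩

theorem h_mulVec (j : Fin (n + 2)) (k : Fˣ) (x : V) :
    mat (hSp j k) *ᵥ x = fun i => hv j k i * x i := by
  funext i; exact Matrix.mulVec_diagonal _ _ i

theorem h_single (j : Fin (n + 2)) (k : Fˣ) (i : ι) :
    mat (hSp j k) *ᵥ Pi.single i 1 = hv j k i • Pi.single i 1 := by
  rw [h_mulVec]; ext l
  by_cases hl : l = i
  · subst hl; simp
  · simp [hl]

theorem h_e_self (j : Fin (n + 2)) (k : Fˣ) : mat (hSp j k) *ᵥ e j = (k : F) • e j := by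
  rw [eb, h_single]; simp [hv]
theorem h_g_self (j : Fin (n + 2)) (k : Fˣ) :
    mat (hSp j k) *ᵥ g j = ((k⁻¹ : Fˣ) : F) • g j := by
  rw [gb, h_single]; simp [hv]
theorem h_e_ne {i j : Fin (n + 2)} (h : i ≠ j) (k : Fˣ) : mat (hSp j k) *ᵥ e i = e i := by
  rw [eb, h_single]; simp [hv, h]
theorem h_g_ne {i j : Fin (n + 2)} (h : i ≠ j) (k : Fˣ) : mat (hSp j k) *ᵥ g i = g i := by
  rw [gb, h_single]; simp [hv, h]

theorem h_comm (i j : Fin (n + 2)) (k : Fˣ) : hSp i k * hSp j k = hSp j k * hSp i k :=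
  Subtype.ext (by simp [hSp, Matrix.diagonal_mul_diagonal, mul_comm])

theorem w_h (k : Fˣ) : w * hSp 0 k = hSp 1 k * w := by
  refine ext_mulVec fun x => ?_
  simp only [coe_mul', ← Matrix.mulVec_mulVec, h_mulVec, w_mulVec]
  ext (i | i)
  · by_cases hi : i = 0
    · subst hi; simp [wLin, hv, zero_ne_one', zero_ne_last.symm]
    · simp [wLin, hv, hi, sub_eq_zero]
  · by_cases hi : i = 0
    · subst hi; simp [wLin, hv, zero_ne_one', zero_ne_last.symm]
    · simp [wLin, hv, hi, sub_eq_zero]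

/-- all short root elements of the pair lie in `H` -/
def Rel (H : Subgroup Sp) (u v : V) : Prop := f u v = 0 ∧ ∀ c : F, yv u v c ∈ H

variable {H : Subgroup (Matrix.symplecticGroup (Fin (n + 2)) F)}
  {u v : (Fin (n + 2) ⊕ Fin (n + 2)) → F}

theorem Rel.symm (h : Rel H u v) : Rel H v u :=
  ⟨by rw [form_skew, h.1, neg_zero], fun c => by rw [← yv_comm h.1]; exact h.2 c⟩

theorem Rel.map (h : Rel H u v) {A : Sp} (hA : A ∈ H) : Rel H (mat A *ᵥ u) (mat A *ᵥ v) :=
  ⟨by rw [form_mulVec, h.1], fun c => by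
    rw [← yv_conj]; exact mul_mem (mul_mem hA (h.2 c)) (inv_mem hA)⟩

theorem Rel.smul (h : Rel H u v) (a : F) : Rel H (a • u) v :=
  ⟨by rw [form_smul_left, h.1, mul_zero], fun c => by rw [yv_smul h.1]; exact h.2 _⟩

theorem Rel.of_smul {a : F} (ha : a ≠ 0) (h : Rel H (a • u) v) : Rel H u v := by
  have := h.smul a⁻¹
  rwa [inv_smul_smul₀ ha] at this

theorem tv_mem_add {u' : V} (h : Rel H u v) (h' : Rel H u' v) (hs : Rel H (u + u') v) (c : F) :
    tv v (-(c ^ 2 * f u' u)) ∈ H := by
  have := hs.2 c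
  rw [yv_add h.1 h'.1] at this
  exact (Subgroup.mul_mem_cancel_left H (mul_mem (h.2 c) (h'.2 c))).mp this

theorem Rel.compose {v' z : V} (h1 : Rel H u v) (h2 : Rel H v' z) (hu : f v' u = 0)
    (hzu : f z u = 0) (hzv : f z v = 0) (hne : f v' v ≠ 0) : Rel H u z := by
  have huz : f u z = 0 := by rw [form_skew, hzu, neg_zero]
  refine ⟨huz, fun c => ?_⟩
  have h3 := (h2.map (h1.2 (f v' v)⁻¹)).2 c
  rw [yv_mulVec h1.1, yv_mulVec h1.1, hu, hzu, hzv, inv_mul_cancel₀ hne] at h3
  simp only [mul_zero, zero_smul, add_zero, one_smul] at h3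
  rw [yv_add h2.1 huz, show f u v' = 0 by rw [form_skew, hu, neg_zero]] at h3
  simp only [mul_zero, neg_zero, tv_zero, mul_one] at h3
  exact (Subgroup.mul_mem_cancel_left H (h2.2 c)).mp h3

theorem Rel.of_one [Fintype F] (hq : Fintype.card F = 2) (h : f u v = 0) (h1 : yv u v 1 ∈ H) :
    Rel H u v := by
  refine ⟨h, fun c => ?_⟩
  by_cases hc : c = 0
  · rw [hc, yv_zero h]; exact one_mem H
  · have := FiniteField.pow_card_sub_one_eq_one c hc
    rw [hq, pow_one] at this
    rw [this]; exact h1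

variable (T : Matrix.symplecticGroup (Fin (n + 2)) F) (hT : T = tv (eb (F := F) (n := n) 0) 1)
include hT

theorem T_e (i : Fin (n + 2)) : mat T *ᵥ e i = e i := by rw [hT, tv_fix _ _ (f_ee i 0)]
theorem T_g {i : Fin (n + 2)} (h : i ≠ 0) : mat T *ᵥ g i = g i := by
  rw [hT, tv_fix _ _ (f_ge_ne h)]
theorem T_g0 : mat T *ᵥ g 0 = g 0 + e 0 := by
  rw [hT, tv_mulVec, f_ge]; simp

theorem rel_chain (h01 : Rel H (e 0) (g 1)) (hw' : T * w ∈ H) :
    ∀ i : ℕ, (hi : i + 1 < n + 2) → Rel H (e ⟨i, by omega⟩) (g ⟨i + 1, hi⟩) := by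
  intro i
  induction i with
  | zero => intro hi; exact h01
  | succ i ih =>
    intro hi
    have h := (ih (by omega)).map hw'
    have e1 : (⟨i, by omega⟩ : Fin (n + 2)) + 1 = ⟨i + 1, by omega⟩ := by
      ext; simp [Fin.val_add_one, Fin.ext_iff]; omega
    have e2 : (⟨i + 1, by omega⟩ : Fin (n + 2)) + 1 = ⟨i + 1 + 1, hi⟩ := by
      ext; simp [Fin.val_add_one, Fin.ext_iff]; omega
    rw [coe_mul', ← Matrix.mulVec_mulVec, ← Matrix.mulVec_mulVec,
      w_e (by simp [Fin.ext_iff]; omega), w_g (by simp [Fin.ext_iff]; omega), e1, e2, T_e T hT,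
      T_g T hT (by simp [Fin.ext_iff])] at h
    exact h

theorem rel_eg (h01 : Rel H (e 0) (g 1)) (hw' : T * w ∈ H) :
    ∀ i j : Fin (n + 2), i < j → Rel H (e i) (g j) := by
  rintro ⟨i, hi⟩ ⟨j, hj⟩ hij
  have hij' : i < j := hij
  induction j with
  | zero => omega
  | succ j ih =>
    rcases Nat.lt_or_ge i j with h | h
    · refine (ih (by omega) h h).compose (rel_chain T hT h01 hw' j hj) (f_ee _ _) ?_ (f_gg _ _) ?_
      · exact f_ge_ne (by simp [Fin.ext_iff]; omega)
      · rw [f_eg, if_pos rfl]; exact neg_ne_zero.mpr one_ne_zero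
    · obtain rfl : i = j := by omega
      exact rel_chain T hT h01 hw' i hj

theorem rel_ee (h01 : Rel H (e 0) (g 1)) (hw' : T * w ∈ H) {j : Fin (n + 2)} (hj : j ≠ 0) :
    Rel H (e j) (e 0) := by
  have hlast : Rel H (e (Fin.last (n + 1))) (e 0) := by
    have h := (rel_chain T hT h01 hw' n (by omega)).map hw'
    have e1 : (⟨n, by omega⟩ : Fin (n + 2)) + 1 = Fin.last (n + 1) := by
      ext; simp [Fin.val_add_one, Fin.ext_iff]
    rw [coe_mul', ← Matrix.mulVec_mulVec, ← Matrix.mulVec_mulVec,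
      w_e (by simp [Fin.ext_iff]), e1, show (⟨n + 1, by omega⟩ : Fin (n + 2)) = Fin.last (n + 1) from rfl,
      w_g_last, T_e T hT, Matrix.mulVec_neg, T_e T hT] at h
    refine (Rel.of_smul (a := (-1 : F)) (by simp) ?_).symm
    rw [neg_one_smul]; exact h.symm
  by_cases hjl : j = Fin.last (n + 1)
  · subst hjl; exact hlast
  · refine (rel_eg T hT h01 hw' j (Fin.last (n + 1)) (lt_of_le_of_ne (Fin.le_last j) hjl)).compose
      hlast (f_ee _ _) (f_ee _ _) ?_ ?_
    · exact f_eg_ne zero_ne_last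
    · rw [f_eg, if_pos rfl]; exact neg_ne_zero.mpr one_ne_zero

theorem rel_u0 (h01 : Rel H (e 0) (g 1)) (hw' : T * w ∈ H) : Rel H (g 0 + e 0) (e 1) := by
  have h := (rel_ee T hT h01 hw' zero_ne_last.symm).map hw'
  rw [coe_mul', ← Matrix.mulVec_mulVec, ← Matrix.mulVec_mulVec, w_e_last,
    w_e zero_ne_last, T_g0 T hT, zero_add, T_e T hT] at h
  exact h

theorem tv_mem_large (h01 : Rel H (e 0) (g 1)) (hw' : T * w ∈ H) (hn : 1 ≤ n) :
    ∃ ν : F, ν ≠ 0 ∧ ∀ b : F, tv (e 0) (b ^ 2 * ν) ∈ H := by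
  have h1l : (1 : Fin (n + 2)) ≠ Fin.last (n + 1) := by simp [Fin.ext_iff]; omega
  have h12 : (1 : Fin (n + 2)) ≠ 1 + 1 := fun h =>
    zero_ne_one' (add_left_cancel (a := (1 : Fin (n + 2))) (by rw [add_zero]; exact h))
  have h20 : (1 + 1 : Fin (n + 2)) ≠ 0 := by
    intro h
    have := congrArg Fin.val h
    rw [Fin.val_add, Fin.val_one, Nat.mod_eq_of_lt (by omega)] at this
    simp at this
  have h10 : (1 : Fin (n + 2)) ≠ 0 := zero_ne_one'.symm
  have h := (rel_u0 T hT h01 hw').map hw'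
  rw [coe_mul', ← Matrix.mulVec_mulVec, ← Matrix.mulVec_mulVec, Matrix.mulVec_add,
    w_g zero_ne_last, w_e zero_ne_last, zero_add, w_e h1l, Matrix.mulVec_add, T_g T hT h10,
    T_e T hT, T_e T hT] at h
  have h02 : Rel H (e 0) (g (1 + 1)) :=
    rel_eg T hT h01 hw' 0 (1 + 1) (Fin.pos_iff_ne_zero.mpr h20)
  have hh : Rel H (e 0) (g 1 + e 1) := h02.compose h.symm (f_ee _ _)
    (by rw [form_add_left, f_ge_ne h10, f_ee, add_zero])
    (by rw [form_add_left, f_gg, f_eg_ne h12, add_zero])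
    (by rw [f_eg, if_pos rfl]; exact neg_ne_zero.mpr one_ne_zero)
  refine ⟨1, one_ne_zero, fun b => ?_⟩
  have := tv_mem_add h01.symm (rel_ee T hT h01 hw' h10) hh.symm b
  rw [f_eg, if_pos rfl] at this
  simpa using this

theorem tv_mem_small (h01 : Rel H (e 0) (g 1)) (hw' : T * w ∈ H) (hn : n = 0) {k : Fˣ}
    (hk1 : (k : F) ≠ 1) (hh : hSp 0 k ∈ H) :
    ∃ ν : F, ν ≠ 0 ∧ ∀ b : F, tv (e 0) (b ^ 2 * ν) ∈ H := by
  have h10 : (1 : Fin (n + 2)) ≠ 0 := zero_ne_one'.symm
  by_cases h2 : (2 : F) = 0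
  · -- characteristic two
    have hu := rel_u0 T hT h01 hw'
    have hu' := hu.map hh
    rw [Matrix.mulVec_add, h_g_self, h_e_self, h_e_ne h10] at hu'
    have hu2 := hu'.smul (k : F)
    rw [smul_add, smul_smul, smul_smul, Units.mul_inv, one_smul] at hu2
    set γ : F := (k : F) * (k : F) - 1 with hγ
    have hγ0 : γ ≠ 0 := by
      intro hz
      have : ((k : F) - 1) * ((k : F) - 1) = 0 := by linear_combination hz - ((k : F) - 1) * h2
      exact hk1 (sub_eq_zero.mp (mul_self_eq_zero.mp this))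
    have h3 : Rel H (γ • e 0) (e 1) := ((rel_ee T hT h01 hw' h10).symm).smul γ
    have hkey : ∀ b : F, tv (e 1) (b ^ 2 * γ) ∈ H := by
      intro b
      have hsum : Rel H ((g 0 + e 0) + γ • e 0) (e 1) := by
        have e1 : (g 0 + e 0) + γ • e 0 = g 0 + ((k : F) * (k : F)) • e 0 := by
          rw [hγ, sub_smul, one_smul]; abel
        rw [e1]; exact hu2
      have := tv_mem_add hu h3 hsum b
      rw [form_smul_left, form_add_right, f_eg, if_pos rfl, f_ee, add_zero] at this
      simpa using this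
    refine ⟨γ, hγ0, fun b => ?_⟩
    have e1 : tv (e 0) (b ^ 2 * γ) = (T * w)⁻¹ * tv (e 1) (b ^ 2 * γ) * (T * w)⁻¹⁻¹ := by
      rw [tv_conj]
      congr 1
      have : mat (T * w) *ᵥ e 0 = e 1 := by
        rw [coe_mul', ← Matrix.mulVec_mulVec, w_e zero_ne_last, zero_add, T_e T hT]
      rw [← this, inv_mulVec]
    rw [e1]
    exact mul_mem (mul_mem (inv_mem hw') (hkey b)) (inv_mem (inv_mem hw'))
  · refine ⟨2, h2, fun b => ?_⟩
    have hee := rel_ee T hT h01 hw' h10
    have hY := h01.2 (b ^ 2)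
    have h4 := (hee.map hY).2 1
    rw [yv_mulVec h01.1, yv_mulVec h01.1, f_ee, f_eg, if_pos rfl, f_ee, f_eg_ne zero_ne_one'] at h4
    simp only [mul_zero, zero_smul, add_zero, mul_neg, mul_one] at h4
    rw [yv_add hee.1 (by rw [form_smul_left, form_self, mul_zero]), yv_self, form_smul_left,
      f_ee] at h4
    simp only [mul_zero, neg_zero, tv_zero, mul_one] at h4
    have h5 := inv_mem ((Subgroup.mul_mem_cancel_left H (hee.2 1)).mp h4)
    rw [tv_inv] at h5
    convert h5 using 2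
    ring

theorem tv_all [Fintype F] (h01 : Rel H (e 0) (g 1)) (hw' : T * w ∈ H) {k : Fˣ}
    (hk : n = 0 → (k : F) ≠ 1 ∧ hSp 0 k ∈ H) (c : F) : tv (e 0) c ∈ H := by
  obtain ⟨ν, hν, hb⟩ : ∃ ν : F, ν ≠ 0 ∧ ∀ b : F, tv (e 0) (b ^ 2 * ν) ∈ H := by
    rcases Nat.eq_zero_or_pos n with hn | hn
    · exact tv_mem_small T hT h01 hw' hn (hk hn).1 (hk hn).2
    · exact tv_mem_large T hT h01 hw' hn
  obtain ⟨a, b, hab⟩ : ∃ a b : F, a ^ 2 + b ^ 2 = c / ν := by
    by_cases h2 : ringChar F = 2
    · obtain ⟨a, ha⟩ := FiniteField.isSquare_of_char_two h2 (c / ν)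
      exact ⟨a, 0, by rw [ha]; ring⟩
    · obtain ⟨a, b, hab⟩ := FiniteField.exists_root_sum_quadratic (R := F)
        (Polynomial.degree_X_pow 2)
        (Polynomial.degree_X_pow_sub_C (show 0 < 2 by norm_num) (c / ν)) (FiniteField.odd_card_of_char_ne_two h2)
      exact ⟨a, b, by simp at hab; linear_combination hab⟩
  have := mul_mem (hb a) (hb b)
  rwa [tv_mul, ← add_mul, hab, div_mul_cancel₀ c hν] at this

/-- the vectors all of whose transvections lie in `H` are all vectors -/
theorem eq_top_of_gen [Fintype F] (h01 : Rel H (e 0) (g 1)) (hw' : T * w ∈ H) {k : Fˣ}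
    (hk : n = 0 → (k : F) ≠ 1 ∧ hSp 0 k ∈ H) : H = ⊤ := by
  classical
  have hte : ∀ c : F, tv (e 0) c ∈ H := tv_all T hT h01 hw' hk
  have hwH : w ∈ H := by
    have h1 : T ∈ H := hT ▸ hte 1
    exact (Subgroup.mul_mem_cancel_left H h1).mp hw'
  -- the property to show
  set S : Set V := {v | ∀ c : F, tv v c ∈ H} with hS
  have hmap : ∀ (A : Sp) (v : V), A ∈ H → mat A *ᵥ v ∈ S → v ∈ S := by
    intro A v hA hv c
    have := mul_mem (mul_mem (inv_mem hA) (hv c)) (inv_mem (inv_mem hA))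
    rwa [tv_conj, inv_mulVec] at this
  have hmap' : ∀ (A : Sp) (v : V), A ∈ H → v ∈ S → mat A *ᵥ v ∈ S := fun A v hA hv =>
    hmap A⁻¹ _ (inv_mem hA) (by rw [inv_mulVec]; exact hv)
  have hscal : ∀ (a : F) (v : V), v ∈ S → a • v ∈ S := fun a v hv c => by
    rw [tv_smul]; exact hv _
  have htg : g 0 ∈ S := by
    obtain ⟨i, hi, hil⟩ : ∃ i : ℕ, i = n + 1 ∧ True := ⟨n + 1, rfl, trivial⟩
    have hall : ∀ i : ℕ, (hi : i < n + 2) → e ⟨i, hi⟩ ∈ S := by
      intro i
      induction i with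
      | zero => intro hi c; exact hte c
      | succ i ih =>
        intro hi
        have := hmap' w _ hwH (ih (by omega))
        rw [w_e (by simp [Fin.ext_iff]; omega)] at this
        have e1 : (⟨i, by omega⟩ : Fin (n + 2)) + 1 = ⟨i + 1, hi⟩ := by
          ext; simp [Fin.val_add_one, Fin.ext_iff]; omega
        rwa [e1] at this
    have := hmap' w _ hwH (hall (n + 1) (by omega))
    rwa [show (⟨n + 1, by omega⟩ : Fin (n + 2)) = Fin.last (n + 1) from rfl, w_e_last] at this
  -- plane zero, with a non-zero `g 0` coordinate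
  have plane : ∀ a b : F, b ≠ 0 → a • e 0 + b • g 0 ∈ S := by
    intro a b hb
    refine hmap (tv (e 0) (-(a / b))) _ (hte _) ?_
    rw [tv_mulVec, form_add_left, form_smul_left, form_smul_left, f_ee, f_ge, if_pos rfl]
    rw [show a • e 0 + b • g 0 + (-(a / b) * (a * 0 + b * 1)) • e 0 = b • g 0 by
      rw [mul_zero, zero_add, mul_one, neg_mul, div_mul_cancel₀ a hb, neg_smul]; abel]
    exact hscal b _ htg
  -- clear the other planes
  have clear : ∀ (s : Finset ι) (v : V), v (.inr 0) ≠ 0 →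
      (∀ i, i ∉ s → i ≠ .inl 0 → i ≠ .inr 0 → v i = 0) → v ∈ S := by
    intro s
    induction s using Finset.induction with
    | empty =>
      intro v hv h
      have : v = v (.inl 0) • e 0 + v (.inr 0) • g 0 := by
        ext i
        by_cases h1 : i = .inl 0
        · subst h1; simp [eb, gb]
        by_cases h2 : i = .inr 0
        · subst h2; simp [eb, gb]
        simp [eb, gb, h i (Finset.notMem_empty i) h1 h2, h1, h2]
      rw [this]; exact plane _ _ hv
    | @insert i s hi ih =>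
      intro v hv h
      rcases i with j | j
      · by_cases hj : j = 0
        · subst hj
          exact ih v hv fun i h1 h2 h3 => h i (by simp [h1, h2]) h2 h3
        · set c : F := -(v (.inl j) / v (.inr 0)) with hc
          refine hmap (yv (e j) (e 0) c) v ((rel_ee T hT h01 hw' hj).2 c) (ih _ ?_ ?_)
          · rw [yv_mulVec (f_ee _ _)]
            simpa [eb] using hv
          · intro i h1 h2 h3
            rw [yv_mulVec (f_ee _ _)]
            have hfv : f v (e 0) = v (.inr 0) := by rw [eb, form_single_inl_right]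
            by_cases hij : i = .inl j
            · subst hij
              simp [eb, hj, hc, form_single_inl_right, hv]
            · simp [eb, h2, hij, h i (by simp [h1, hij]) h2 h3]
      · by_cases hj : j = 0
        · subst hj
          exact ih v hv fun i h1 h2 h3 => h i (by simp [h1, h3]) h2 h3
        · set c : F := -(v (.inr j) / v (.inr 0)) with hc
          have hR : Rel H (g j) (e 0) :=
            (rel_eg T hT h01 hw' 0 j (Fin.pos_iff_ne_zero.mpr hj)).symm
          refine hmap (yv (g j) (e 0) c) v (hR.2 c) (ih _ ?_ ?_)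
          · rw [yv_mulVec hR.1]
            simpa [eb, gb, Ne.symm hj] using hv
          · intro i h1 h2 h3
            rw [yv_mulVec hR.1]
            have hfv : f v (e 0) = v (.inr 0) := by rw [eb, form_single_inl_right]
            by_cases hij : i = .inr j
            · subst hij
              simp [eb, gb, hc, form_single_inl_right, hv]
            · simp [eb, gb, h2, hij, h i (by simp [h1, hij]) h2 h3]
  have main : ∀ v : V, (v (.inl 0) ≠ 0 ∨ v (.inr 0) ≠ 0) → v ∈ S := by
    intro v hv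
    by_cases h : v (.inr 0) = 0
    · have ha := hv.resolve_right (not_not.mpr h)
      refine hmap (tv (g 0) 1) v (htg 1) (clear Finset.univ _ ?_ fun i h => absurd (Finset.mem_univ i) h)
      rw [tv_mulVec, gb, form_single_inr_right]
      simp [h, ha]
    · exact clear Finset.univ v h fun i h => absurd (Finset.mem_univ i) h
  have shift : ∀ (i : ℕ) (hi : i < n + 2) (v : V),
      (v (.inl ⟨i, hi⟩) ≠ 0 ∨ v (.inr ⟨i, hi⟩) ≠ 0) → v ∈ S := by
    intro i
    induction i with
    | zero => intro hi v hv; exact main v hv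
    | succ i ih =>
      intro hi v hv
      have e0 : (⟨i, by omega⟩ : Fin (n + 2)) + 1 = ⟨i + 1, hi⟩ := by
        ext; simp [Fin.val_add_one, Fin.ext_iff]; omega
      refine hmap w⁻¹ v (inv_mem hwH) (ih (by omega) _ ?_)
      have hx := mulVec_inv w v
      generalize mat w⁻¹ *ᵥ v = x at hx ⊢
      rw [← hx, w_mulVec, ← e0] at hv
      have hne : (⟨i, by omega⟩ : Fin (n + 2)) + 1 ≠ 0 := by
        rw [e0]; intro h0; have := congrArg Fin.val h0; simp at this
      simpa [wLin, hne] using hv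
  refine eq_top_of_tv H fun v c => ?_
  by_cases hv : v = 0
  · have : tv v c = 1 := ext_mulVec fun x => by simp [hv, tv_mulVec, coe_one']
    rw [this]; exact one_mem H
  · obtain ⟨i, hi⟩ := Function.ne_iff.1 hv
    rcases i with ⟨i, hi'⟩ | ⟨i, hi'⟩
    · exact shift i hi' v (Or.inl (by simpa using hi)) c
    · exact shift i hi' v (Or.inr (by simpa using hi)) c

omit hT

theorem two_gen [Fintype F] (hF : n = 0 → 2 < Fintype.card F) :
    ∃ a b : Sp, Subgroup.closure ({a, b} : Set Sp) = ⊤ := by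
  classical
  set T : Sp := tv (e 0) 1 with hT
  have hfeg : f (e 0) (g 1) = 0 := f_eg_ne zero_ne_one'
  rcases Nat.lt_or_ge 2 (Fintype.card F) with hq | hq
  · obtain ⟨k, hk⟩ := IsCyclic.exists_generator (α := Fˣ)
    have hk1 : (k : F) ≠ 1 := by
      intro h1
      have : orderOf k = 1 := orderOf_eq_one_iff.mpr (Units.ext h1)
      rw [orderOf_eq_card_of_forall_mem_zpowers hk, Nat.card_eq_fintype_card,
        Fintype.card_units] at this
      omega
    set X := yv (e 0) (g 1) 1 with hX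
    refine ⟨hSp 0 k, X * T * w, ?_⟩
    set H := Subgroup.closure ({hSp 0 k, X * T * w} : Set Sp)
    have hh : hSp 0 k ∈ H := Subgroup.subset_closure (by simp)
    have hu : X * T * w ∈ H := Subgroup.subset_closure (by simp)
    set D := hSp (1 : Fin (n + 2)) k with hD
    have hcj : ∀ c : F, hSp 0 k * yv (e 0) (g 1) c * (hSp 0 k)⁻¹ =
        yv (e 0) (g 1) ((k : F) * c) := fun c => by
      rw [yv_conj, h_e_self, h_g_ne zero_ne_one'.symm, yv_smul hfeg]
    have hTD : T * D = D * T := by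
      have := tv_conj D (e 0) 1
      rw [hD, h_e_ne zero_ne_one', mul_inv_eq_iff_eq_mul] at this
      exact this.symm
    set r : F := 1 - ((k⁻¹ : Fˣ) : F) with hr
    have hA : yv (e 0) (g 1) r * D ∈ H := by
      have h1 : X * T * w * hSp 0 k * (X * T * w)⁻¹ ∈ H := mul_mem (mul_mem hu hh) (inv_mem hu)
      have h2 : X * T * w * hSp 0 k * (X * T * w)⁻¹ = X * D * X⁻¹ := by
        calc X * T * w * hSp 0 k * (X * T * w)⁻¹
            = X * T * (w * hSp 0 k * w⁻¹) * T⁻¹ * X⁻¹ := by group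
          _ = X * (T * D) * T⁻¹ * X⁻¹ := by rw [hD, w_h, mul_inv_cancel_right]; group
          _ = _ := by rw [hTD]; group
      have h3 : D * X⁻¹ = yv (e 0) (g 1) (-((k⁻¹ : Fˣ) : F)) * D := by
        rw [hX, yv_inv hfeg, ← mul_inv_eq_iff_eq_mul, yv_conj, h_e_ne zero_ne_one', h_g_self,
          yv_comm (by rw [form_smul_right, hfeg, mul_zero]),
          yv_smul (by rw [form_skew, hfeg, neg_zero]), yv_comm (by rw [form_skew, hfeg, neg_zero]),
          mul_neg_one]
      rw [h2, mul_assoc, h3, ← mul_assoc, hX, yv_mul hfeg, ← sub_eq_add_neg] at h1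
      exact h1
    have hν : yv (e 0) (g 1) (((k : F) - 1) * r) ∈ H := by
      have h1 := mul_mem (mul_mem (mul_mem hh hA) (inv_mem hh)) (inv_mem hA)
      have h2 : hSp 0 k * (yv (e 0) (g 1) r * D) * (hSp 0 k)⁻¹ * (yv (e 0) (g 1) r * D)⁻¹ =
          yv (e 0) (g 1) (((k : F) - 1) * r) := by
        calc _ = (hSp 0 k * yv (e 0) (g 1) r * (hSp 0 k)⁻¹) *
              (hSp 0 k * D * (hSp 0 k)⁻¹ * D⁻¹) * (yv (e 0) (g 1) r)⁻¹ := by group
          _ = _ := by
            rw [h_comm, mul_inv_cancel_right, mul_inv_cancel, mul_one, hcj, yv_inv hfeg,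
              yv_mul hfeg]
            congr 1; ring
      rwa [h2] at h1
    have hν0 : ((k : F) - 1) * r ≠ 0 := by
      refine mul_ne_zero (sub_ne_zero.mpr hk1) (sub_ne_zero.mpr fun h => hk1 ?_)
      have hk' := k.inv_mul
      rwa [← h, one_mul] at hk'
    have h01 : Rel H (e 0) (g 1) := by
      refine ⟨hfeg, fun c => ?_⟩
      by_cases hc : c = 0
      · rw [hc, yv_zero hfeg]; exact one_mem H
      have key : ∀ j : ℕ, yv (e 0) (g 1) ((k : F) ^ j * (((k : F) - 1) * r)) ∈ H := by
        intro j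
        induction j with
        | zero => rw [pow_zero, one_mul]; exact hν
        | succ j ih =>
          rw [pow_succ', mul_assoc, ← hcj]
          exact mul_mem (mul_mem hh ih) (inv_mem hh)
      obtain ⟨j, hj⟩ := mem_powers_iff_mem_zpowers.mpr
        (hk (Units.mk0 (c / (((k : F) - 1) * r)) (div_ne_zero hc hν0)))
      have hj' : (k : F) ^ j = c / (((k : F) - 1) * r) := by
        simpa using congrArg (fun u : Fˣ => (u : F)) hj
      have := key j
      rwa [hj', div_mul_cancel₀ c hν0] at this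
    have hw' : T * w ∈ H := by
      have := mul_mem (inv_mem (h01.2 1)) hu
      rwa [← hX, mul_assoc, inv_mul_cancel_left] at this
    exact eq_top_of_gen T hT h01 hw' (k := k) fun _ => ⟨hk1, hh⟩
  · have hq2 : Fintype.card F = 2 := le_antisymm hq Fintype.one_lt_card
    refine ⟨yv (e 0) (g 1) 1, T * w, ?_⟩
    refine eq_top_of_gen T hT (Rel.of_one hq2 hfeg (Subgroup.subset_closure (by simp)))
      (Subgroup.subset_closure (by simp)) (k := 1) fun hn => ?_
    have := hF hn
    omega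

end CfsgLib.SpTwoGen
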